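import Cfsg.Agent.Lib.Invol.AltHom
import Cfsg.Agent.Lib.PG.Iso

set_option autoImplicit false
set_option maxRecDepth 100000

namespace Cfsg.Agent.Lib.L211

open scoped Pointwise

@[ext] structure Q where
  a : ZMod 11
  b : ZMod 11
  c : ZMod 11
  d : ZMod 11
  deriving DecidableEq

def S : Type := {q : Q // q.a * q.d - q.b * q.c = 1}

instance instDecS : DecidableEq S := fun x y => decidable_of_iff (x.1 = y.1) Subtype.ext_iff.symm

instance instGroupS : Group S where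
  mul x y := ⟨⟨x.1.a * y.1.a + x.1.b * y.1.c, x.1.a * y.1.b + x.1.b * y.1.d,
    x.1.c * y.1.a + x.1.d * y.1.c, x.1.c * y.1.b + x.1.d * y.1.d⟩, by
      linear_combination (y.1.a * y.1.d - y.1.b * y.1.c) * x.2 + y.2⟩
  one := ⟨⟨1, 0, 0, 1⟩, by simp⟩
  inv x := ⟨⟨x.1.d, -x.1.b, -x.1.c, x.1.a⟩, by linear_combination x.2⟩
  mul_assoc x y z := Subtype.ext (Q.ext (by change (_ + _) * _ + (_ + _) * _ = _ * (_ + _) + _ * (_ + _); ring)
    (by change (_ + _) * _ + (_ + _) * _ = _ * (_ + _) + _ * (_ + _); ring)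
    (by change (_ + _) * _ + (_ + _) * _ = _ * (_ + _) + _ * (_ + _); ring)
    (by change (_ + _) * _ + (_ + _) * _ = _ * (_ + _) + _ * (_ + _); ring))
  one_mul x := Subtype.ext (Q.ext (by change 1 * _ + 0 * _ = _; ring) (by change 1 * _ + 0 * _ = _; ring)
    (by change 0 * _ + 1 * _ = _; ring) (by change 0 * _ + 1 * _ = _; ring))
  mul_one x := Subtype.ext (Q.ext (by change _ * 1 + _ * 0 = _; ring) (by change _ * 0 + _ * 1 = _; ring)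
    (by change _ * 1 + _ * 0 = _; ring) (by change _ * 0 + _ * 1 = _; ring))
  inv_mul_cancel x := Subtype.ext (Q.ext
    (by change x.1.d * x.1.a + -x.1.b * x.1.c = 1; linear_combination x.2)
    (by change x.1.d * x.1.b + -x.1.b * x.1.d = 0; ring)
    (by change -x.1.c * x.1.a + x.1.a * x.1.c = 0; ring)
    (by change -x.1.c * x.1.b + x.1.a * x.1.d = 1; linear_combination x.2))

def mk (a b c d : ZMod 11) (h : a * d - b * c = 1 := by decide) : S := ⟨⟨a, b, c, d⟩, h⟩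

def z : S := mk 10 0 0 10

/-- `x = ±1` -/
def pm (x : S) : Prop := x = 1 ∨ x = z

instance instDecPm : DecidablePred pm := fun x => inferInstanceAs (Decidable (x = 1 ∨ x = z))

def uH (i : ℕ) : S := [1, mk 1 5 6 9, mk 0 1 10 0, mk 2 2 3 9].getD i 1
def uK (i : ℕ) : S := [1, mk 1 5 6 9, mk 0 1 10 0, mk 2 8 9 9].getD i 1
def ev (u : ℕ → S) (l : List ℕ) : S := (l.map u).prod
def A0 : S := mk 0 1 10 0
def g0 : S := mk 1 1 0 1
def hw (i : ℕ) : List ℕ :=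
  [[], [], [1], [2], [3], [1, 1], [1, 2], [1, 3], [3, 1], [3, 2], [2, 3, 1]].getD i []
def t (i : ℕ) : S := if i = 0 then 1 else ev uH (hw i) * g0
def tw : List (List ℕ) := [[], [1], [1, 1], [1, 2], [1, 2, 3], [1, 3], [2], [2, 1], [2, 1, 1],
  [2, 3], [3], [3, 2, 1], [1, 1, 2]]
/-- certificate of non-membership -/
def nm (u : ℕ → S) (x : S) : Prop := ∃ w ∈ tw, ¬ pm ((((x * ev u w) ^ 3) ^ 5) ^ 4)

instance instDecNm (u : ℕ → S) : DecidablePred (nm u) := fun x =>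
  inferInstanceAs (Decidable (∃ w ∈ tw, ¬ pm ((((x * ev u w) ^ 3) ^ 5) ^ 4)))

def Rel (u : ℕ → S) : Prop :=
  (∀ j < 4, ∀ i < j, i + 1 < j → pm (((u i)⁻¹ * u j)⁻¹ * ((u j)⁻¹ * u i)) ∧
    pm ((u i * (u j)⁻¹)⁻¹ * (u j * (u i)⁻¹))) ∧
  (∀ i < 3, pm ((u i * (u (i + 1))⁻¹ * u i)⁻¹ * (u (i + 1) * (u i)⁻¹ * u (i + 1)))) ∧
  ¬ pm ((u 0)⁻¹ * u 1) ∧ u 0 = 1 ∧ nm u (g0 * u 1 * g0⁻¹)

theorem relH : Rel uH := by unfold Rel; decide +kernel
theorem relK : Rel uK := by unfold Rel; decide +kernel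
theorem t_ne : ∀ i < 11, ∀ j < i, nm uH ((t j)⁻¹ * t i) := by decide +kernel
theorem t_K : ∀ i < 11, ∃ k < 4, nm uH ((t i)⁻¹ * uK k * t i) := by decide +kernel

theorem cert1 : ∀ a b c d : ZMod 11, ∀ h : a * d - b * c = 1, pm (mk a b c d h ^ 2) →
    ¬ pm (mk a b c d h) → ∃ x y e : ZMod 11, ∃ h' : 0 * e - x * y = 1,
      pm (A0⁻¹ * (mk 0 x y e h' * mk a b c d h * (mk 0 x y e h')⁻¹)) := by
  decide +kernel

def C : List S := [mk 0 1 10 0, mk 1 0 0 1, mk 1 3 3 10, mk 1 8 8 10, mk 3 1 1 8, mk 3 5 6 3,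
  mk 3 6 5 3, mk 3 10 10 8, mk 4 4 4 7, mk 4 7 7 7, mk 5 3 8 5, mk 5 8 3 5]

theorem C_spec : ∀ g ∈ C, pm (A0⁻¹ * (g * A0 * g⁻¹)) := by decide +kernel

theorem cert2 : ∀ a b c d : ZMod 11, ∀ h : a * d - b * c = 1, pm (mk a b c d h ^ 3) →
    ¬ pm (mk a b c d h) → pm ((A0 * mk a b c d h) ^ 5) → ∃ g ∈ C,
      (∃ w ∈ [[3, 2, 1, 3], [2, 2, 2, 3, 2, 1]], pm ((ev uH w)⁻¹ * (g * mk a b c d h * g⁻¹))) ∨
      (∃ w ∈ [[3, 1, 2, 3], [1, 2, 2, 2, 3, 2]], pm ((ev uK w)⁻¹ * (g * mk a b c d h * g⁻¹))) := by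
  decide +kernel

end Cfsg.Agent.Lib.L211
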