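import Cfsg.Agent.Lib.Misc.L211

set_option autoImplicit false

namespace Cfsg.Agent.Lib.L211

open scoped Pointwise
open Matrix

/-- `G` is presented as `SL(2,11)/±1`. -/
structure Model {G : Type*} [Group G] (Φ : S →* G) : Prop where
  surj : Function.Surjective Φ
  ker : ∀ x, Φ x = 1 ↔ pm x
  card : Nat.card G = 660

theorem exists_model {F : Type*} [Field F] [Fintype F] (hF : Fintype.card F = 11) :
    ∃ Φ : S →* ProjectiveSpecialLinearGroup (Fin 2) F, Model Φ := by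
  classical
  haveI : Fact (Nat.Prime 11) := ⟨by norm_num⟩
  let e : ZMod 11 ≃+* F := FiniteField.ringEquivOfCardEq (by rw [hF, ZMod.card])
  let Ψ : S →* Matrix.SpecialLinearGroup (Fin 2) F := MonoidHom.mk'
    (fun x => ⟨!![e x.1.a, e x.1.b; e x.1.c, e x.1.d], by
      rw [det_fin_two_of, ← map_mul, ← map_mul, ← map_sub, x.2, map_one]⟩)
    (fun x y => Subtype.ext (by
      change _ = !![e x.1.a, e x.1.b; e x.1.c, e x.1.d] * !![e y.1.a, e y.1.b; e y.1.c, e y.1.d]
      simp only [Matrix.mul_fin_two, ← map_mul, ← map_add]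
      rfl))
  have hΨ : ∀ x, (Ψ x).1 = !![e x.1.a, e x.1.b; e x.1.c, e x.1.d] := fun _ => rfl
  have hsurj : Function.Surjective Ψ := fun g =>
    ⟨⟨⟨e.symm (g.1 0 0), e.symm (g.1 0 1), e.symm (g.1 1 0), e.symm (g.1 1 1)⟩, by
      apply e.injective
      have := g.2
      rw [det_fin_two] at this
      simpa using this⟩, Subtype.ext (by
        refine (hΨ _).trans ?_
        simp only [RingEquiv.apply_symm_apply]; exact (Matrix.eta_fin_two g.1).symm)⟩
  have hinj : Function.Injective Ψ := fun x y h => by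
    have h1 := congrArg Subtype.val h
    rw [hΨ, hΨ] at h1
    exact Subtype.ext (Q.ext (e.injective (congrFun (congrFun h1 0) 0))
      (e.injective (congrFun (congrFun h1 0) 1)) (e.injective (congrFun (congrFun h1 1) 0))
      (e.injective (congrFun (congrFun h1 1) 1)))
  have hz : (Ψ z).1 = scalar (Fin 2) (-1) := by
    rw [hΨ]
    have h1 : z.1.a = -1 := rfl
    have h2 : z.1.d = -1 := rfl
    have h3 : z.1.b = 0 := rfl
    have h4 : z.1.c = 0 := rfl
    rw [h1, h2, h3, h4]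
    ext i j
    fin_cases i <;> fin_cases j <;> simp
  have hker : ∀ x, (QuotientGroup.mk' (Subgroup.center _)).comp Ψ x = 1 ↔ pm x := by
    intro x
    rw [MonoidHom.comp_apply, QuotientGroup.mk'_apply, QuotientGroup.eq_one_iff,
      Matrix.SpecialLinearGroup.mem_center_iff]
    constructor
    · rintro ⟨r, hr, h⟩
      rw [Fintype.card_fin, sq_eq_one_iff] at hr
      rcases hr with rfl | rfl
      · exact Or.inl (hinj (Subtype.ext (by rw [← h, map_one, map_one]; rfl)))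
      · exact Or.inr (hinj (Subtype.ext (by rw [← h, hz])))
    · rintro (rfl | rfl)
      · exact ⟨1, by simp, by simp⟩
      · exact ⟨-1, by simp, hz.symm⟩
  have hs := (QuotientGroup.mk'_surjective (Subgroup.center _)).comp hsurj
  refine ⟨(QuotientGroup.mk' (Subgroup.center _)).comp Ψ, hs, hker, ?_⟩
  have h1 := Cfsg.Agent.PG.card_SL_mul 2 F
  rw [Matrix.card_GL_field, Nat.card_eq_fintype_card (α := F), hF, ← Nat.card_congr
    (Equiv.ofBijective Ψ ⟨hinj, hsurj⟩)] at h1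
  have h2 : Nat.card S = 1320 := by
    have : ∏ i : Fin 2, (11 ^ 2 - 11 ^ (i : ℕ)) = 13200 := by decide
    omega
  have h3 := ((QuotientGroup.mk' (Subgroup.center _)).comp Ψ).ker.card_mul_index
  rw [Subgroup.index_ker, MonoidHom.range_eq_top.2 hs, Subgroup.card_top, h2] at h3
  have h4 : Nat.card ((QuotientGroup.mk' (Subgroup.center _)).comp Ψ).ker = 2 := by
    refine Eq.trans ?_ (Set.ncard_pair (a := (1 : S)) (b := z) (by decide +kernel))
    rw [← Nat.card_coe_set_eq]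
    exact Nat.card_congr (Equiv.subtypeEquivRight fun x => hker x)
  rw [h4] at h3
  change Nat.card (_ ⧸ Subgroup.center _) = _
  omega

variable {G : Type*} [Group G] {Φ : S →* G}

theorem Model.eq (h : Model Φ) {x y : S} (hxy : pm (x⁻¹ * y)) : Φ x = Φ y := by
  have := (h.ker _).2 hxy
  rwa [map_mul, map_inv, inv_mul_eq_one] at this

theorem ev_mem {H : Subgroup G} {u : ℕ → S} (hu : ∀ i, Φ (u i) ∈ H) (w : List ℕ) :
    Φ (ev u w) ∈ H := by
  induction w with
  | nil => simp [ev]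
  | cons i w ih =>
    have : ev u (i :: w) = u i * ev u w := by simp [ev]
    rw [this, map_mul]
    exact mul_mem (hu i) ih

theorem Model.not_mem (h : Model Φ) {H : Subgroup G} (hH : Nat.card H = 60) {u : ℕ → S}
    (hu : ∀ i, Φ (u i) ∈ H) {x : S} (hx : nm u x) : Φ x ∉ H := fun hm => by
  obtain ⟨w, -, hw⟩ := hx
  apply hw
  rw [← h.ker, ← pow_mul, ← pow_mul, map_pow, map_mul]
  have := pow_card_eq_one' (x := (⟨_, mul_mem hm (ev_mem hu w)⟩ : H))
  rw [hH] at this
  exact congrArg Subtype.val this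

theorem card_A5 : Nat.card (alternatingGroup (Fin 5)) = 60 := by
  rw [nat_card_alternatingGroup]; simp [Nat.factorial]

theorem Model.exists_A5 (h : Model Φ) {u : ℕ → S} (hu : Rel u) (hu' : ∀ i, 4 ≤ i → u i = 1) :
    ∃ H : Subgroup G, Nonempty (H ≃* alternatingGroup (Fin 5)) ∧ ∀ i, Φ (u i) ∈ H := by
  obtain ⟨h1, h2, h3, h4, -⟩ := hu
  obtain ⟨φ, hφ, hφ'⟩ := Cfsg.Agent.Lib.AltHom.exists_inj_alt (fun i => Φ (u i)) 4 le_rfl
    (fun i j hij hj => by
      simp only [← map_inv, ← map_mul]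
      exact ⟨h.eq (h1 j hj i (by omega) hij).1, h.eq (h1 j hj i (by omega) hij).2⟩)
    (fun i hi => by
      simp only [← map_inv, ← map_mul]
      exact h.eq (h2 i (by omega)))
    (fun h' => h3 (by rw [← h.ker, map_mul, map_inv, h', inv_mul_cancel]))
  refine ⟨φ.range, ⟨(MonoidHom.ofInjective hφ).symm⟩, fun i => ?_⟩
  by_cases hi : i < 4
  · let i' : Fin 4 := ⟨i, hi⟩
    have := hφ' i' 0 ⟨Equiv.swap i'.castSucc i'.succ * Equiv.swap (0 : Fin 4).castSucc (0 : Fin 4).succ, by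
      rw [Equiv.Perm.mem_alternatingGroup, map_mul,
        Equiv.Perm.sign_swap (Fin.castSucc_lt_succ (i := i')).ne,
        Equiv.Perm.sign_swap (Fin.castSucc_lt_succ (i := 0)).ne]; rfl⟩ rfl
    refine ⟨_, this.trans ?_⟩
    change Φ (u i) * (Φ (u 0))⁻¹ = _
    rw [h4, map_one, inv_one, mul_one]
  · rw [hu' i (by omega), map_one]; exact one_mem _

theorem uH_one (i : ℕ) (h : 4 ≤ i) : uH i = 1 := List.getD_eq_default _ _ h
theorem uK_one (i : ℕ) (h : 4 ≤ i) : uK i = 1 := List.getD_eq_default _ _ h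

theorem Model.index (h : Model Φ) {H : Subgroup G} (hH : Nat.card H = 60) : H.index = 11 := by
  have := H.card_mul_index
  rw [hH, h.card] at this
  omega

theorem Model.cosets (h : Model Φ) {H : Subgroup G} (hH : Nat.card H = 60)
    (hu : ∀ i, Φ (uH i) ∈ H) (x : G ⧸ H) : ∃ i < 11, x = (Φ (t i) : G ⧸ H) := by
  let f : Fin 11 → G ⧸ H := fun i => (Φ (t i) : G ⧸ H)
  have key : ∀ i j : Fin 11, j < i → f j ≠ f i := fun i j hij he =>
    h.not_mem hH hu (t_ne i i.2 j hij) (by rw [map_mul, map_inv]; exact QuotientGroup.eq.1 he)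
  have hf : Function.Injective f := fun i j he => by
    rcases lt_trichotomy i j with h1 | h1 | h1
    · exact absurd he (key j i h1)
    · exact h1
    · exact absurd he.symm (key i j h1)
  have hc : Nat.card (G ⧸ H) = 11 := h.index hH
  haveI : Finite (G ⧸ H) := Nat.finite_of_card_ne_zero (by omega)
  obtain ⟨i, hi⟩ := (hf.bijective_of_nat_card_le (by rw [hc]; simp)).2 x
  exact ⟨i, i.2, hi.symm⟩

theorem Model.two_trans (h : Model Φ) {H : Subgroup G} (hH : Nat.card H = 60)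
    (hu : ∀ i, Φ (uH i) ∈ H) : MulAction.IsMultiplyPretransitive G (G ⧸ H) 2 := by
  have key : ∀ a b : G ⧸ H, a ≠ b → ∃ g : G, g • ((1 : G) : G ⧸ H) = a ∧
      g • ((Φ g0 : G) : G ⧸ H) = b := by
    intro a b hab
    obtain ⟨g, rfl⟩ := QuotientGroup.mk_surjective a
    obtain ⟨i, -, hi⟩ := h.cosets hH hu (g⁻¹ • b)
    by_cases h0 : i = 0
    · subst h0
      refine absurd ?_ hab
      rw [inv_smul_eq_iff.1 hi]
      simp [t]
    · refine ⟨g * Φ (ev uH (hw i)), ?_, ?_⟩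
      · rw [MulAction.Quotient.smul_mk, smul_eq_mul, mul_one]
        exact QuotientGroup.mk_mul_of_mem g (ev_mem hu _)
      · rw [mul_smul, inv_smul_eq_iff.1 hi, t, if_neg h0, map_mul]
        rfl
  rw [MulAction.is_two_pretransitive_iff]
  intro a b c d hab hcd
  obtain ⟨g, h1, h2⟩ := key a b hab
  obtain ⟨g', h1', h2'⟩ := key c d hcd
  exact ⟨g' * g⁻¹, by rw [← h1, ← h1', mul_smul, inv_smul_smul],
    by rw [← h2, ← h2', mul_smul, inv_smul_smul]⟩

theorem mem_conj_smul {H : Subgroup G} {g x : G} : x ∈ MulAut.conj g • H ↔ g⁻¹ * x * g ∈ H := by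
  rw [Subgroup.mem_pointwise_smul_iff_inv_smul_mem]
  simp

theorem Model.not_conj (h : Model Φ) {H K : Subgroup G} (hH : Nat.card H = 60)
    (hu : ∀ i, Φ (uH i) ∈ H) (hu' : ∀ i, Φ (uK i) ∈ K) (g : G) : MulAut.conj g • H ≠ K := by
  rintro rfl
  obtain ⟨i, hi, he⟩ := h.cosets hH hu (g : G ⧸ H)
  obtain ⟨k, -, hk⟩ := t_K i hi
  apply h.not_mem hH hu hk
  have h1 := mem_conj_smul.1 (hu' k)
  have h2 := QuotientGroup.eq.1 he
  have := mul_mem (mul_mem (inv_mem h2) h1) h2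
  simpa [mul_assoc] using this

theorem eq_of_three {H L : Subgroup G} (eH : H ≃* alternatingGroup (Fin 5))
    (hL : Nat.card L = 60) {a b : G} (ha : orderOf a = 2) (hb : orderOf b = 3)
    (hab : orderOf (a * b) = 5) (h1 : a ∈ H) (h2 : b ∈ H) (h3 : a ∈ L) (h4 : b ∈ L) : L = H := by
  have hH : Nat.card H = 60 := by rw [Nat.card_congr eH.toEquiv, card_A5]
  haveI : Finite H := Nat.finite_of_card_ne_zero (by omega)
  haveI : IsSimpleGroup (alternatingGroup (Fin 5)) := alternatingGroup.isSimpleGroup (by simp)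
  haveI : IsSimpleGroup H := eH.isSimpleGroup
  have d : ∀ x (hx : x ∈ H), x ∈ L → orderOf x ∣ Nat.card (L.subgroupOf H) := fun x hx hx' => by
    rw [← Subgroup.orderOf_mk x hx]
    exact Subgroup.orderOf_dvd_natCard _ hx'
  have d2 := d a h1 h3
  have d3 := d b h2 h4
  have d5 := d _ (mul_mem h1 h2) (mul_mem h3 h4)
  rw [ha] at d2; rw [hb] at d3; rw [hab] at d5
  have hi := (L.subgroupOf H).card_mul_index
  rw [hH] at hi
  have h30 : 30 ∣ Nat.card (L.subgroupOf H) := by omega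
  obtain ⟨c, hc⟩ := h30
  have h5 : (L.subgroupOf H).index ∣ 2 := ⟨c, by rw [hc] at hi; nlinarith⟩
  have hle : H ≤ L := by
    rcases (Nat.dvd_prime Nat.prime_two).1 h5 with h | h
    · exact Subgroup.relIndex_eq_one.1 h
    · rcases (Subgroup.normal_of_index_eq_two h).eq_bot_or_eq_top with h6 | h6
      · rw [h6, Subgroup.card_bot] at d2; omega
      · rw [h6, Subgroup.index_top] at h; omega
  haveI : Finite L := Nat.finite_of_card_ne_zero (by omega)
  exact (Subgroup.eq_of_le_of_card_ge hle (by omega)).symm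

theorem exists_gens : ∃ a b : alternatingGroup (Fin 5), orderOf a = 2 ∧ orderOf b = 3 ∧
    orderOf (a * b) = 5 := by
  haveI : Fact (Nat.Prime 5) := ⟨by norm_num⟩
  refine ⟨⟨Equiv.swap 0 1 * Equiv.swap 2 3, by simp⟩, ⟨Equiv.swap 0 2 * Equiv.swap 2 4, by simp⟩,
    ?_, ?_, ?_⟩
  · refine orderOf_eq_prime (Subtype.ext (Equiv.ext ?_)) fun h => ?_
    · decide
    · exact absurd (Equiv.ext_iff.1 (congrArg Subtype.val h) 0) (by decide)
  · refine orderOf_eq_prime (Subtype.ext (Equiv.ext ?_)) fun h => ?_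
    · decide
    · exact absurd (Equiv.ext_iff.1 (congrArg Subtype.val h) 0) (by decide)
  · refine orderOf_eq_prime (Subtype.ext (Equiv.ext ?_)) fun h => ?_
    · decide
    · exact absurd (Equiv.ext_iff.1 (congrArg Subtype.val h) 0) (by decide)

theorem card_conj_smul (H : Subgroup G) (g : G) : Nat.card ↥(MulAut.conj g • H) = Nat.card H :=
  (Nat.card_congr (Subgroup.equivSMul (MulAut.conj g) H).toEquiv).symm

theorem Model.classify (h : Model Φ) {H K : Subgroup G} (eH : H ≃* alternatingGroup (Fin 5))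
    (eK : K ≃* alternatingGroup (Fin 5)) (hu : ∀ i, Φ (uH i) ∈ H) (hu' : ∀ i, Φ (uK i) ∈ K)
    {L : Subgroup G} (e : L ≃* alternatingGroup (Fin 5)) :
    ∃ g : G, MulAut.conj g • L = H ∨ MulAut.conj g • L = K := by
  have hL : Nat.card L = 60 := by rw [Nat.card_congr e.toEquiv, card_A5]
  obtain ⟨a, b, ha, hb, hab⟩ := exists_gens
  obtain ⟨A, hA⟩ := h.surj (e.symm a)
  obtain ⟨B, hB⟩ := h.surj (e.symm b)
  have oA : orderOf (Φ A) = 2 := by rw [hA, Subgroup.orderOf_coe, MulEquiv.orderOf_eq, ha]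
  have oB : orderOf (Φ B) = 3 := by rw [hB, Subgroup.orderOf_coe, MulEquiv.orderOf_eq, hb]
  have oAB : orderOf (Φ A * Φ B) = 5 := by
    rw [hA, hB, ← Subgroup.coe_mul, ← map_mul, Subgroup.orderOf_coe, MulEquiv.orderOf_eq, hab]
  have pw : ∀ x n, orderOf (Φ x) = n → pm (x ^ n) := fun x n hx => by
    rw [← h.ker, map_pow, ← hx, pow_orderOf_eq_one]
  have np : ∀ x n, orderOf (Φ x) = n → n ≠ 1 → ¬ pm x := fun x n hx hn hp => by
    rw [(h.ker x).2 hp, orderOf_one] at hx; exact hn hx.symm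
  have oc : ∀ g x : S, orderOf (Φ (g * x * g⁻¹)) = orderOf (Φ x) := fun g x => by
    rw [map_mul, map_mul, map_inv]
    exact (MulAut.conj (Φ g)).orderOf_eq (Φ x)
  obtain ⟨x, y, e', h', h1⟩ := cert1 A.1.a A.1.b A.1.c A.1.d A.2 (pw A 2 oA) (np A 2 oA (by norm_num))
  generalize L211.mk 0 x y e' h' = g1 at h1
  have e1 : Φ A0 = Φ (g1 * A * g1⁻¹) := h.eq h1
  have oB' : orderOf (Φ (g1 * B * g1⁻¹)) = 3 := by rw [oc, oB]
  have oAB' : orderOf (Φ (A0 * (g1 * B * g1⁻¹))) = 5 := by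
    rw [map_mul, e1, ← map_mul, show g1 * A * g1⁻¹ * (g1 * B * g1⁻¹) = g1 * (A * B) * g1⁻¹ by group,
      oc, map_mul, oAB]
  obtain ⟨g2, hg2, h2⟩ := cert2 (g1 * B * g1⁻¹).1.a (g1 * B * g1⁻¹).1.b (g1 * B * g1⁻¹).1.c
    (g1 * B * g1⁻¹).1.d (g1 * B * g1⁻¹).2 (pw _ 3 oB') (np _ 3 oB' (by norm_num)) (pw _ 5 oAB')
  have e2 : Φ A0 = Φ (g2 * A0 * g2⁻¹) := h.eq (C_spec g2 hg2)
  have e3 : Φ A0 = Φ (g2 * g1 * A * (g2 * g1)⁻¹) := by
    rw [e2, map_mul, map_mul, e1, ← map_mul, ← map_mul]; congr 1; group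
  have fin : ∀ M : Subgroup G, (M ≃* alternatingGroup (Fin 5)) → Φ A0 ∈ M →
      Φ (g2 * (g1 * B * g1⁻¹) * g2⁻¹) ∈ M → MulAut.conj (Φ (g2 * g1)) • L = M := by
    intro M eM h1 h2
    rw [show g2 * (g1 * B * g1⁻¹) * g2⁻¹ = g2 * g1 * B * (g2 * g1)⁻¹ by group] at h2
    rw [e3] at h1
    refine eq_of_three eM (by rw [card_conj_smul, hL]) (by rw [oc, oA]) (by rw [oc, oB]) ?_ h1 h2 ?_ ?_
    · rw [← map_mul, show g2 * g1 * A * (g2 * g1)⁻¹ * (g2 * g1 * B * (g2 * g1)⁻¹) =
        g2 * g1 * (A * B) * (g2 * g1)⁻¹ by group, oc, map_mul, oAB]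
    · rw [mem_conj_smul, ← map_inv, ← map_mul, ← map_mul, show (g2 * g1)⁻¹ * (g2 * g1 * A * (g2 * g1)⁻¹) *
        (g2 * g1) = A by group, hA]
      exact (e.symm a).2
    · rw [mem_conj_smul, ← map_inv, ← map_mul, ← map_mul, show (g2 * g1)⁻¹ * (g2 * g1 * B * (g2 * g1)⁻¹) *
        (g2 * g1) = B by group, hB]
      exact (e.symm b).2
  refine ⟨Φ (g2 * g1), ?_⟩
  rcases h2 with ⟨w, -, hw⟩ | ⟨w, -, hw⟩
  · exact Or.inl (fin H eH (hu 2) (h.eq hw ▸ ev_mem hu w))
  · exact Or.inr (fin K eK (hu' 2) (h.eq hw ▸ ev_mem hu' w))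

theorem Model.ncard_class (h : Model Φ) {H : Subgroup G} (hH : Nat.card H = 60) {u : ℕ → S}
    (hr : Rel u) (hu : ∀ i, Φ (u i) ∈ H) : {L | ∃ g : G, MulAut.conj g • H = L}.ncard = 11 := by
  letI : MulAction G (Subgroup G) := MulAction.compHom _ (MulAut.conj (G := G))
  have h1 : (MulAction.stabilizer G H).index = {L | ∃ g : G, MulAut.conj g • H = L}.ncard :=
    MulAction.index_stabilizer G H
  have hle : H ≤ MulAction.stabilizer G H := fun g hg => by
    change MulAut.conj g • H = H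
    ext x
    rw [mem_conj_smul]
    exact ⟨fun h => by simpa [mul_assoc] using mul_mem (mul_mem hg h) (inv_mem hg),
      fun h => mul_mem (mul_mem (inv_mem hg) h) hg⟩
  have h2 := Subgroup.index_dvd_of_le hle
  rw [h.index hH] at h2
  rw [← h1]
  refine ((Nat.dvd_prime (by norm_num)).1 h2).resolve_left fun h3 => ?_
  have h4 : Φ g0 ∈ MulAction.stabilizer G H := by rw [Subgroup.index_eq_one.1 h3]; trivial
  apply h.not_mem hH hu hr.2.2.2.2
  have h5 : MulAut.conj (Φ g0) • H = H := h4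
  rw [← h5, mem_conj_smul]
  simpa [mul_assoc] using hu 1

end Cfsg.Agent.Lib.L211
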