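/-
Primitive divisors of `q ^ e - 1` and lower bounds for values of cyclotomic polynomials.
-/
import Mathlib

set_option autoImplicit false
set_option linter.style.haveILetI false

namespace Cfsg.Agent.Lib.Zsig

open Polynomial Finset

/-- The value of the `e`-th cyclotomic polynomial at `q`. -/
noncomputable def cyc (q e : ℕ) : ℤ := (cyclotomic e ℤ).eval (q : ℤ)

theorem cyc_dvd (q e : ℕ) : cyc q e ∣ (q : ℤ) ^ e - 1 := by
  simpa [cyc] using eval_dvd (x := (q : ℤ)) (cyclotomic.dvd_X_pow_sub_one e ℤ)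

theorem cyc_dvd_geom {q f s : ℕ} (hq : 2 ≤ q) (hf : 0 < f) (hs : 1 < s) :
    cyc q (f * s) ∣ ∑ i ∈ range s, ((q : ℤ) ^ f) ^ i * 1 ^ (s - 1 - i) := by
  have h := eval_dvd (x := (q : ℤ)) (X_pow_sub_one_mul_cyclotomic_dvd_X_pow_sub_one_of_dvd ℤ
    (d := f) (n := f * s) (Nat.mem_properDivisors.mpr ⟨dvd_mul_right _ _, by nlinarith⟩))
  simp only [eval_mul, eval_sub, eval_pow, eval_X, eval_one] at h
  have h2 := geom_sum₂_mul ((q : ℤ) ^ f) 1 s
  rw [one_pow, ← pow_mul] at h2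
  rw [← h2, mul_comm] at h
  refine (mul_dvd_mul_iff_right ?_).mp h
  have : (1 : ℤ) < (q : ℤ) ^ f := one_lt_pow₀ (by exact_mod_cast hq) hf.ne'
  omega

theorem cast_iff {q r i : ℕ} : (r : ℤ) ∣ (q : ℤ) ^ i - 1 ↔ (q : ZMod r) ^ i = 1 := by
  rw [← ZMod.intCast_zmod_eq_zero_iff_dvd]; push_cast; rw [sub_eq_zero]

theorem nonprim {q e r i : ℕ} (hq : 2 ≤ q) (hr : r.Prime) (h : (r : ℤ) ∣ cyc q e) (hi : 1 ≤ i)
    (hie : i < e) (hri : (q : ZMod r) ^ i = 1) :
    ∃ d k, e = d * k ∧ 1 < k ∧ 0 < d ∧ d ∣ r - 1 ∧ (q : ZMod r) ^ d = 1 ∧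
      ∀ s, s.Prime → s ∣ k → s = r := by
  haveI := Fact.mk hr
  have h1 : (q : ZMod r) ^ e = 1 := cast_iff.mp (h.trans (cyc_dvd q e))
  obtain ⟨k, hk⟩ := orderOf_dvd_of_pow_eq_one h1
  have h2 := Nat.le_of_dvd hi (orderOf_dvd_of_pow_eq_one hri)
  have h3 : (q : ZMod r) ≠ 0 := fun e0 => by
    rw [e0, zero_pow (by omega)] at h1; exact zero_ne_one h1
  have hd : 0 < orderOf (q : ZMod r) := Nat.pos_of_ne_zero fun h0 => by rw [h0] at hk; omega
  refine ⟨_, k, hk, ?_, hd, ZMod.orderOf_dvd_card_sub_one h3, pow_orderOf_eq_one _, ?_⟩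
  · by_contra hk1
    have : k ≤ 1 := by omega
    nlinarith
  · rintro s hs ⟨t, rfl⟩
    have ht : 0 < t := Nat.pos_of_ne_zero fun h0 => by rw [h0] at hk; omega
    have e1 : e = orderOf (q : ZMod r) * t * s := by rw [hk]; ring
    rw [e1] at h
    have h4 := h.trans (cyc_dvd_geom hq (Nat.mul_pos hd ht) hs.one_lt)
    rw [dvd_geom_sum₂_iff_of_dvd_sub (cast_iff.mpr (by rw [pow_mul, pow_orderOf_eq_one, one_pow])),
      one_pow, mul_one, Int.natCast_dvd_natCast] at h4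
    exact ((Nat.prime_dvd_prime_iff_eq hr hs).mp h4).symm

theorem not_sq_dvd {q e r d k : ℕ} (hq : 2 ≤ q) (he : 3 ≤ e) (hr : r.Prime) (hk : e = d * k)
    (hk1 : 1 < k) (hd : 0 < d) (hdr : d ∣ r - 1) (h1 : (q : ZMod r) ^ d = 1)
    (hs : ∀ s, s.Prime → s ∣ k → s = r) : ¬ (r : ℤ) ^ 2 ∣ cyc q e := by
  intro h
  haveI := Fact.mk hr
  obtain ⟨t, rfl⟩ : r ∣ k := hs _ (Nat.minFac_prime hk1.ne') (Nat.minFac_dvd k) ▸ Nat.minFac_dvd k
  have ht : 0 < t := Nat.pos_of_ne_zero fun h0 => by rw [h0] at hk1; omega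
  have e1 : e = d * t * r := by rw [hk]; ring
  rw [e1] at h
  have h4 := h.trans (cyc_dvd_geom hq (Nat.mul_pos hd ht) hr.one_lt)
  have h5 : (r : ℤ) ∣ (q : ℤ) ^ (d * t) - 1 := cast_iff.mpr (by rw [pow_mul, h1, one_pow])
  rcases hr.eq_two_or_odd' with rfl | hodd
  · obtain rfl : d = 1 := Nat.dvd_one.mp hdr
    have ht1 : t ≠ 1 := by omega
    obtain ⟨u, rfl⟩ : 2 ∣ t :=
      hs _ (Nat.minFac_prime ht1) ((Nat.minFac_dvd t).mul_left 2) ▸ Nat.minFac_dvd t
    simp only [sum_range_succ, range_zero, sum_empty, one_pow, pow_zero, pow_one, mul_one,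
      zero_add, one_mul, mul_comm 2 u, pow_mul] at h4
    generalize (q : ℤ) ^ u = y at h4
    have : y % 4 = 0 ∨ y % 4 = 1 ∨ y % 4 = 2 ∨ y % 4 = 3 := by omega
    have h6 : y ^ 2 % 4 = 0 ∨ y ^ 2 % 4 = 1 := by
      rcases this with h | h | h | h <;> simp [sq, Int.mul_emod, h]
    push_cast at h4
    omega
  · have := emultiplicity_geom_sum₂_eq_one (Nat.prime_iff_prime_int.mp hr) hodd h5 (fun h6 => by
      have := (dvd_sub h6 h5)
      rw [sub_sub_cancel] at this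
      exact (Nat.prime_iff_prime_int.mp hr).not_dvd_one this)
    have h7 := le_emultiplicity_of_pow_dvd h4
    rw [this] at h7
    norm_num at h7

/-- The primitive part is at least `Φ_e(q) / e`. -/
theorem exists_primitive {q e : ℕ} (hq : 2 ≤ q) (he : 3 ≤ e) :
    ∃ m : ℕ, m ∣ q ^ e - 1 ∧ (∀ i : ℕ, 1 ≤ i → i < e → Nat.Coprime m (q ^ i - 1)) ∧
      (cyc q e).natAbs ≤ m * e := by
  have hc : ∀ i, ((q ^ i - 1 : ℕ) : ℤ) = (q : ℤ) ^ i - 1 := fun i => by
    rw [Nat.cast_sub (Nat.one_le_pow _ _ (by omega))]; simp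
  have hn : (cyc q e).natAbs ∣ q ^ e - 1 := by
    rw [← Int.natCast_dvd_natCast, hc, Int.natAbs_dvd]; exact cyc_dvd q e
  by_cases h : ∀ i : ℕ, 1 ≤ i → i < e → Nat.Coprime (cyc q e).natAbs (q ^ i - 1)
  · exact ⟨_, hn, h, Nat.le_mul_of_pos_right _ (by omega)⟩
  push Not at h
  obtain ⟨i, hi, hie, h⟩ := h
  obtain ⟨r, hr, ⟨m, hm⟩, h2⟩ := Nat.Prime.not_coprime_iff_dvd.mp h
  have h1 : (r : ℤ) ∣ cyc q e := Int.natCast_dvd.mpr ⟨m, hm⟩
  obtain ⟨d, k, a1, a2, a3, a4, a5, a6⟩ := nonprim hq hr h1 hi hie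
    (cast_iff.mp (hc i ▸ Int.natCast_dvd_natCast.mpr h2))
  have hrk : r ∣ k := a6 _ (Nat.minFac_prime a2.ne') (Nat.minFac_dvd k) ▸ Nat.minFac_dvd k
  have hre : r ∣ e := a1 ▸ hrk.mul_left d
  refine ⟨m, (Dvd.intro_left _ hm.symm).trans hn, fun j hj hje => ?_, ?_⟩
  · by_contra h3
    obtain ⟨r', hr', h4, h5⟩ := Nat.Prime.not_coprime_iff_dvd.mp h3
    have h6 : (r' : ℤ) ∣ cyc q e := Int.natCast_dvd.mpr (hm ▸ h4.mul_left r)
    obtain ⟨d', k', b1, b2, b3, b4, b5, b6⟩ := nonprim hq hr' h6 hj hje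
      (cast_iff.mp (hc j ▸ Int.natCast_dvd_natCast.mpr h5))
    have hrk' : r' ∣ k' := b6 _ (Nat.minFac_prime b2.ne') (Nat.minFac_dvd k') ▸ Nat.minFac_dvd k'
    have hre' : r' ∣ e := b1 ▸ hrk'.mul_left d'
    by_cases hrr : r' = r
    · subst hrr
      refine not_sq_dvd hq he hr a1 a2 a3 a4 a5 a6 ?_
      rw [← Int.natCast_pow, Int.natCast_dvd, hm, sq]
      exact Nat.mul_dvd_mul_left _ h4
    · have c1 : r ∣ d' := ((hr.dvd_mul).mp (b1 ▸ hre)).resolve_right fun h => hrr (b6 r hr h).symm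
      have c2 : r' ∣ d := ((hr'.dvd_mul).mp (a1 ▸ hre')).resolve_right fun h => hrr (a6 r' hr' h)
      have := hr.one_lt
      have := hr'.one_lt
      have := Nat.le_of_dvd (by omega) (c1.trans b4)
      have := Nat.le_of_dvd (by omega) (c2.trans a4)
      omega
  · rw [hm, mul_comm]
    exact Nat.mul_le_mul_left _ (Nat.le_of_dvd (by omega) hre)

theorem cyc_cast (q e : ℕ) : ((cyc q e : ℤ) : ℝ) = (cyclotomic e ℝ).eval (q : ℝ) := by
  rw [cyc, ← map_cyclotomic_int e ℝ, ← Int.cast_natCast (R := ℝ) q, eval_intCast_map]; simp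

theorem two_pow_le_sq_two {e : ℕ} (he : 6 < e) :
    (2 : ℝ) ^ e.totient ≤ ((cyclotomic e ℝ).eval 2) ^ 2 := by
  have key : ∀ p : ℕ, p.Prime → (2 : ℝ) ^ p ≤ (2 ^ p - 1) ^ 2 := fun p hp => by
    have : (2 : ℝ) ^ 2 ≤ 2 ^ p := pow_le_pow_right₀ (by norm_num) hp.two_le
    nlinarith
  have key' : ∀ p : ℕ, p.Prime → (1 : ℝ) < 2 ^ p := fun p hp => one_lt_pow₀ (by norm_num) hp.ne_zero
  by_cases h : ∃ p f, p.Prime ∧ e = f * p ∧ p ∣ f
  · obtain ⟨p, f, hp, rfl, hf⟩ := h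
    rw [← cyclotomic_expand_eq_cyclotomic hp hf, expand_eval, mul_comm f,
      Nat.totient_mul_of_prime_of_dvd hp hf, pow_mul]
    refine le_trans (pow_le_pow_left₀ (by positivity) (key p hp) _) ?_
    rw [← pow_mul, mul_comm, pow_mul]
    exact pow_le_pow_left₀ (pow_nonneg (by linarith [key' p hp]) _)
      (sub_one_pow_totient_le_cyclotomic_eval (key' p hp) f) 2
  obtain ⟨p, hp, hp5, f, rfl⟩ : ∃ p, p.Prime ∧ 5 ≤ p ∧ p ∣ e := by
    by_contra h2
    push Not at h h2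
    have h3 : e ∣ 6 := by
      rw [← Nat.prod_primeFactors_of_squarefree (n := e) (by
        rw [Nat.squarefree_iff_prime_squarefree]
        rintro p hp ⟨c, hc⟩
        exact h p (p * c) hp (by rw [hc]; ring) (dvd_mul_right _ _))]
      refine (prod_dvd_prod_of_subset _ ({2, 3} : Finset ℕ) _ fun p hp => ?_).trans (by decide)
      have a1 := Nat.prime_of_mem_primeFactors hp
      have a2 : ¬ 5 ≤ p := fun h5 => h2 p a1 h5 (Nat.dvd_of_mem_primeFactors hp)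
      have := a1.two_le
      have : p ≠ 4 := by rintro rfl; exact absurd a1 (by decide)
      simp; omega
    have := Nat.le_of_dvd (by norm_num) h3
    omega
  have hf : ¬ p ∣ f := fun hf => h ⟨p, f, hp, mul_comm _ _, hf⟩
  have h1 := congrArg (eval (2 : ℝ)) (cyclotomic_expand_eq_cyclotomic_mul hp hf ℝ)
  rw [expand_eval, eval_mul, mul_comm f] at h1
  have h2 := sub_one_pow_totient_le_cyclotomic_eval (key' p hp) f
  have h3 := cyclotomic_eval_le_add_one_pow_totient (q := 2) (by norm_num) f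
  have h4 := cyclotomic_nonneg (p * f) (R := ℝ) (x := 2) (by norm_num)
  rw [h1] at h2
  have h5 : ((2 : ℝ) ^ p - 1) ^ f.totient ≤ (cyclotomic (p * f) ℝ).eval 2 * 3 ^ f.totient :=
    h2.trans (mul_le_mul_of_nonneg_left (by simpa [show (2 : ℝ) + 1 = 3 by norm_num] using h3) h4)
  have h6 : (2 : ℝ) ^ (p - 1) * 3 ^ 2 ≤ (2 ^ p - 1) ^ 2 := by
    obtain ⟨n, rfl⟩ : ∃ n, p = n + 1 := ⟨p - 1, by omega⟩
    have : (2 : ℝ) ^ 4 ≤ 2 ^ n := pow_le_pow_right₀ (by norm_num) (by omega)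
    rw [Nat.add_sub_cancel, pow_succ 2 n]
    nlinarith
  rw [Nat.totient_mul_of_prime_of_not_dvd hp hf, pow_mul]
  have h7 := pow_le_pow_left₀ (by positivity) h6 f.totient
  have h8 := pow_le_pow_left₀ (pow_nonneg (by linarith [key' p hp]) _) h5 2
  rw [← pow_mul, mul_comm 2, pow_mul] at h7
  have h9 := h7.trans h8
  rw [mul_pow, mul_pow, ← pow_mul 3, ← pow_mul 3, mul_comm 2] at h9
  exact le_of_mul_le_mul_right h9 (by positivity)

theorem two_pow_le_sq {q e : ℕ} (hq : 2 ≤ q) (he : 6 < e) :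
    2 ^ e.totient ≤ (cyc q e).natAbs ^ 2 := by
  rcases hq.eq_or_lt with rfl | hq
  · have := two_pow_le_sq_two he
    rw [show (2 : ℝ) = ((2 : ℕ) : ℝ) from rfl, ← cyc_cast] at this
    zify
    rw [sq_abs]
    exact_mod_cast this
  · have h1 := sub_one_pow_totient_lt_natAbs_cyclotomic_eval (n := e) (q := q) (by omega) (by omega)
    have h2 : 2 ^ e.totient ≤ (q - 1) ^ e.totient := Nat.pow_le_pow_left (by omega) _
    change _ < (cyc q e).natAbs at h1
    nlinarith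

theorem totient_bound (n : ℕ) :
    8 * n ^ 2 ≤ (if 2 ∣ n then 4 else 1) * (if 3 ∣ n then 9 else 8) * n.totient ^ 3 := by
  induction n using induction_on_primes with
  | zero => simp
  | one => simp
  | prime_mul p a hp ih =>
    have h2 : 2 ∣ p * a ↔ p = 2 ∨ 2 ∣ a := by
      rw [Nat.prime_two.dvd_mul, Nat.prime_dvd_prime_iff_eq Nat.prime_two hp, eq_comm]
    have h3 : 3 ∣ p * a ↔ p = 3 ∨ 3 ∣ a := by
      rw [Nat.prime_three.dvd_mul, Nat.prime_dvd_prime_iff_eq Nat.prime_three hp, eq_comm]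
    by_cases h : p ∣ a
    · have h2' : 2 ∣ p * a ↔ 2 ∣ a := h2.trans ⟨fun h' => h'.elim (fun e => e ▸ h) id, Or.inr⟩
      have h3' : 3 ∣ p * a ↔ 3 ∣ a := h3.trans ⟨fun h' => h'.elim (fun e => e ▸ h) id, Or.inr⟩
      simp only [h2', h3', Nat.totient_mul_of_prime_of_dvd hp h]
      have : p ^ 2 ≤ p ^ 3 := Nat.pow_le_pow_right hp.pos (by omega)
      calc 8 * (p * a) ^ 2 = p ^ 2 * (8 * a ^ 2) := by ring
        _ ≤ p ^ 3 * _ := Nat.mul_le_mul this ih
        _ = _ := by ring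
    · rw [Nat.totient_mul_of_prime_of_not_dvd hp h]
      simp only [h2, h3]
      by_cases e2 : p = 2
      · subst e2
        simp only [h, if_false, true_or, if_true, OfNat.ofNat_eq_ofNat, Nat.succ_ne_self, false_or,
          Nat.reduceEqDiff] at ih ⊢
        nlinarith
      by_cases e3 : p = 3
      · subst e3
        simp only [h, if_false, true_or, if_true, OfNat.ofNat_eq_ofNat, false_or,
          Nat.reduceEqDiff] at ih ⊢
        nlinarith
      simp only [e2, e3, false_or]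
      have : p ^ 2 ≤ (p - 1) ^ 3 := by
        have := hp.two_le
        have : p ≠ 4 := by rintro rfl; exact absurd hp (by decide)
        obtain ⟨n, rfl⟩ : ∃ n, p = n + 5 := ⟨p - 5, by omega⟩
        rw [show n + 5 - 1 = n + 4 by omega]
        nlinarith [Nat.zero_le (n ^ 3), Nat.zero_le (n ^ 2)]
      calc 8 * (p * a) ^ 2 = p ^ 2 * (8 * a ^ 2) := by ring
        _ ≤ (p - 1) ^ 3 * _ := Nat.mul_le_mul this ih
        _ = _ := by ring

theorem totient_bound' (n : ℕ) : 2 * n ^ 2 ≤ 9 * n.totient ^ 3 := by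
  have := totient_bound n
  split_ifs at this <;> omega

theorem pow_six_lt {t : ℕ} (h : 40 ≤ t) : 729 * t ^ 6 < 4 * 2 ^ t := by
  induction t, h using Nat.le_induction with
  | base => norm_num
  | succ t ht ih =>
    have h1 : (t + 1) * 40 ≤ t * 41 := by omega
    have h2 := Nat.pow_le_pow_left h1 6
    rw [mul_pow, mul_pow] at h2
    rw [pow_succ 2]
    omega

theorem three_mul_sq_lt {q e : ℕ} (hq : 2 ≤ q) (he : 6 < e) (h : 40 ≤ e.totient) :
    3 * e ^ 2 < (cyc q e).natAbs := by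
  have h1 := two_pow_le_sq hq he
  have h2 := pow_six_lt h
  have h3 := Nat.pow_le_pow_left (totient_bound' e) 2
  rw [mul_pow, mul_pow, ← pow_mul e.totient, show 3 * 2 = 6 from rfl] at h3
  refine lt_of_pow_lt_pow_left₀ 2 (Nat.zero_le _) ?_
  rw [mul_pow]
  omega

end Cfsg.Agent.Lib.Zsig
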